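import Cfsg.Agent.H796.Imc.Sph
import Cfsg.Agent.H816.IMM

/-!
# `IMC p` for the Monster from a spherical function of the rank 9 scheme (S4526, helper680)

* `imc_of_dat` : every datum `MEigL.Dat` of helper816 whose values are not too negative.
* `imc_model_three`, `imc_model_five` : the primes 3 and 5 for the model.
-/

set_option autoImplicit false

namespace Cfsg.Agent.H680.IMC

open Cfsg Cfsg.Agent.H625.SylConst Cfsg.Agent.MonsterX.InstData Cfsg.Agent.H816.MEigL Cfsg.Agent.H816.MSch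
open Cfsg.Agent.H816.MDeg Cfsg.Agent.H816

/-- **`IMC p` for the model from a datum of the rank 9 scheme.** -/
theorem imc_of_dat {P : Fin 9 → Fin 9 → ℤ} {θ D : ℤ} {ω : Fin 9 → ℤ} {R : Fin 9 → Fin 9 → ℤ} {r : Fin 9 → ℤ} {f : ℕ}
    (h : Dat t k P 2 θ D ω R r 97239461142009186000 f) {p : ℕ} [hp : Fact p.Prime] (hpf : p ∣ f) (n : ℕ)
    (hn : ¬ p ^ (n + 1) ∣ 97239461142009186000) (hD : 0 < D)
    (hpos : ∀ u : Fin 9, u ≠ 0 → -D < ((p : ℤ) ^ n - 1) * ω u) : IMC p ↥M.G := by
  have := finite_G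
  have hX : Finite XT := Nat.finite_of_card_ne_zero (by rw [card_XT]; norm_num)
  have hE := h.toEig
  have hd := h.toDeg
  rw [← c_b1] at hE
  refine Cfsg.Agent.H796.Imc.imc_of_col isCol tt_eq hE (by rw [card_XT]; exact hd) hpf n (by rw [card_XT]; exact hn)
    (fun u => (ω u : ℚ) / (D : ℚ)) (fun u => by push_cast; rfl) (fun u hu => ?_)
  have h1 : (-(D : ℚ)) < ((p : ℚ) ^ n - 1) * (ω u : ℚ) := by exact_mod_cast hpos u hu
  have h2 : (0 : ℚ) < (D : ℚ) := by exact_mod_cast hD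
  rw [← mul_div_assoc, lt_div_iff₀ h2]
  linarith

theorem imc_model_three [Fact (Nat.Prime 3)] : IMC 3 ↥M.G :=
  imc_of_dat dat_36173193327999 (by norm_num) 7 (by norm_num) (by decide) (by decide +kernel)

theorem imc_model_five [Fact (Nat.Prime 5)] : IMC 5 ↥M.G :=
  imc_of_dat dat_1109944460516150 (by norm_num) 3 (by norm_num) (by decide) (by decide +kernel)

end Cfsg.Agent.H680.IMC
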