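import Cfsg.Agent.H680.IMC.MDat

/-!
# `IMC p` for the Monster, all primes (S4526, helper680)
-/

set_option autoImplicit false

namespace Cfsg.Agent.H680.IMC

open Cfsg Cfsg.Agent.H625.SylConst Cfsg.Agent.MonsterX.InstData Cfsg.Agent.H816.MEigL Cfsg.Agent.H816.MSch
open Cfsg.Agent.H816.MDeg Cfsg.Agent.H816

universe u

/-- The model, all primes. -/
theorem imc_model {p : ℕ} [hp : Fact p.Prime]
    (hd : p ∣ 808017424794512875886459904961710757005754368000000000) : IMC p ↥M.G := by
  have h1 := IMM.prime_mem hp.out hd
  clear hd
  simp only [List.mem_cons, List.not_mem_nil, or_false] at h1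
  rcases h1 with rfl | rfl | rfl | rfl | rfl | rfl | rfl | rfl | rfl | rfl | rfl | rfl | rfl | rfl | rfl
  · exact imc_of_dat dat_842609326 (by norm_num) 4 (by norm_num) (by decide) (by decide +kernel)
  · exact imc_model_three
  · exact imc_model_five
  · exact imc_of_dat dat_36173193327999 (by norm_num) 4 (by norm_num) (by decide) (by decide +kernel)
  · exact imc_of_dat dat_18538750076 (by norm_num) 1 (by norm_num) (by decide) (by decide +kernel)
  · exact imc_of_dat dat_842609326 (by norm_num) 2 (by norm_num) (by decide) (by decide +kernel)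
  · exact imc_of_dat dat_36173193327999 (by norm_num) 0 (by norm_num) (by decide) (by decide +kernel)
  · exact imc_of_dat dat_36173193327999 (by norm_num) 0 (by norm_num) (by decide) (by decide +kernel)
  · exact imc_of_dat dat_18538750076 (by norm_num) 0 (by norm_num) (by decide) (by decide +kernel)
  · exact imc_of_dat dat_842609326 (by norm_num) 1 (by norm_num) (by decide) (by decide +kernel)
  · exact imc_of_dat dat_842609326 (by norm_num) 0 (by norm_num) (by decide) (by decide +kernel)
  · exact imc_of_dat dat_18538750076 (by norm_num) 1 (by norm_num) (by decide) (by decide +kernel)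
  · exact imc_of_dat dat_196883 (by norm_num) 0 (by norm_num) (by decide) (by decide +kernel)
  · exact imc_of_dat dat_36173193327999 (by norm_num) 1 (by norm_num) (by decide) (by decide +kernel)
  · exact imc_of_dat dat_18538750076 (by norm_num) 1 (by norm_num) (by decide) (by decide +kernel)

/-- **The row `M` of `IMC`.** -/
theorem imc_m {S : Type u} [Group S] [Finite S] (h : Spor.IsoM S) {p : ℕ} [hp : Fact p.Prime]
    (hd : p ∣ Nat.card S) : IMC p S := by
  obtain ⟨e⟩ := IMM.exists_equiv h
  rw [IMM.card_eq h] at hd
  have := finite_G
  exact IMC.of_equiv e (imc_model hd)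

end Cfsg.Agent.H680.IMC
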